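import Mathlib
import Cfsg.Agent.H41.S6Kit2

/-!
# Project SP6: piece X1
-/

set_option autoImplicit false
set_option maxRecDepth 100000
set_option synthInstance.maxSize 40960
set_option synthInstance.maxHeartbeats 400000

namespace Cfsg.Agent.H69.S6

open Cfsg Subgroup
open Cfsg.Agent.H44 Cfsg.Agent.H55.Sp6 Cfsg.Agent.H2.L3E Cfsg.Agent.H41.S6

universe u

/-- generators of `V0` -/
theorem V0_le {C : Subgroup Sp} (h1 : g 1 ∈ C) (h2 : a12 ∈ C) (h4 : a13 ∈ C) (h16 : r12 ∈ C)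
    (h32 : r13 ∈ C) : V0 ≤ C := by
  have mul : ∀ u < 64, ∀ v < 64, bf 1 u = 0 → bf 1 v = 0 → sg 1 u ∈ C → sg 1 v ∈ C →
      sg 1 (u ^^^ v) ∈ C := fun u hu v hv bu bv a b => by
    have := mul_mem a b
    rw [sg_mul hu hv bu bv] at this
    exact (C.mul_mem_cancel_right (pow_mem h1 _)).1 this
  have z0 : sg 1 0 ∈ C := (show sg 1 0 = ev g [] from weq (by decide +kernel)) ▸ one_mem C
  have z1 : sg 1 1 ∈ C := (show sg 1 1 = ev g [] from weq (by decide +kernel)) ▸ one_mem C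
  have key : ∀ w < 64, bf 1 w = 0 → ∃ a ∈ [0, 1], ∃ b ∈ [0, 2], ∃ c ∈ [0, 4], ∃ d ∈ [0, 16],
      ∃ e ∈ [0, 32], w = a ^^^ b ^^^ c ^^^ d ^^^ e ∧ (a < 64 ∧ bf 1 a = 0) ∧ (b < 64 ∧ bf 1 b = 0) ∧
        (c < 64 ∧ bf 1 c = 0) ∧ (d < 64 ∧ bf 1 d = 0) ∧ (e < 64 ∧ bf 1 e = 0) ∧
        (a ^^^ b < 64 ∧ bf 1 (a ^^^ b) = 0) ∧ (a ^^^ b ^^^ c < 64 ∧ bf 1 (a ^^^ b ^^^ c) = 0) ∧
        (a ^^^ b ^^^ c ^^^ d < 64 ∧ bf 1 (a ^^^ b ^^^ c ^^^ d) = 0) := by decide +kernel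
  have two : ∀ {a k : ℕ}, a ∈ [0, k] → sg 1 k ∈ C → sg 1 a ∈ C := fun h hk => by
    rcases List.mem_pair.1 h with rfl | rfl
    exacts [z0, hk]
  have all : ∀ w < 64, bf 1 w = 0 → sg 1 w ∈ C := fun w hw hb0 => by
    obtain ⟨a, ha, b, hb, c, hc, d, hd, e, he, rfl, p1, p2, p3, p4, p5, p6, p7, p8⟩ := key w hw hb0
    exact mul _ p8.1 _ p5.1 p8.2 p5.2 (mul _ p7.1 _ p4.1 p7.2 p4.2 (mul _ p6.1 _ p3.1 p6.2 p3.2
      (mul _ p1.1 _ p2.1 p1.2 p2.2 (two ha z1) (two hb h2)) (two hc h4)) (two hd h16)) (two he h32)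
  intro y hy
  obtain ⟨v, hv, hb, rfl | rfl⟩ := V0_par hy
  exacts [all v hv hb, mul_mem (all v hv hb) h1]

section G

variable {G : Type u} [Group G] {ι : Sp →* G} {t x : G}

theorem cV_of (h1 : x * ι (g 1) = ι (g 1) * x) (h2 : x * ι a12 = ι a12 * x)
    (h4 : x * ι a13 = ι a13 * x) (h16 : x * ι r12 = ι r12 * x) (h32 : x * ι r13 = ι r13 * x) :
    ∀ v ∈ V0, x * ι v = ι v * x := fun _ hv =>
  (mem_centralizer_singleton_iff.1 (V0_le (C := (centralizer {x}).comap ι)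
    (mem_centralizer_singleton_iff.2 h1.symm) (mem_centralizer_singleton_iff.2 h2.symm)
    (mem_centralizer_singleton_iff.2 h4.symm) (mem_centralizer_singleton_iff.2 h16.symm)
    (mem_centralizer_singleton_iff.2 h32.symm) hv)).symm

variable [Finite G] (h : Hy ι t)
include h

theorem phi (nl : NL ι t) (c3 : CIII ι t) (hx : x ∈ NE ι t) {c : ℕ} (hc : c < 64) :
    ∃ d < 64, x * ι (ac c) * x⁻¹ = ι (ac d) := by
  obtain ⟨a, ha, e | e⟩ := h.mem_E3.1 (mem_NE.1 hx _ (h.mem_E3.2 ⟨_, ac_mem hc, Or.inl rfl⟩))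
  · obtain ⟨d, hd, rfl⟩ := A_par.1 ha
    exact ⟨d, hd, e⟩
  · exact absurd ((c3 a ha).trans (isConj_iff.2 ⟨x, e⟩).symm) (nl _)

theorem shift (hx : x ∈ Nh ι t) (tr : x * t * x⁻¹ = t * ι (g 1)) {p : Sp} (hp : p ∈ P3)
    (hp1 : p ∈ P1) : x⁻¹ * (ι p * x * (ι p)⁻¹) ∈ E3 ι t := by
  refine h.Nh_uniq (h.P3_Nh hp hx) hx ?_
  have e1 := h.conj_tl p (g 1)
  rw [P1_comm hp1, mul_inv_cancel_right] at e1
  have e2 := h.conj_t p⁻¹
  rw [map_inv, inv_inv] at e2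
  calc _ = ι p * (x * ((ι p)⁻¹ * t * ι p) * x⁻¹) * (ι p)⁻¹ := by group
    _ = _ := by rw [e2, tr, e1]

theorem eqv (hx : x ∈ Nh ι t) (tr : x * t * x⁻¹ = t * ι (g 1)) {l : List ℕ}
    (hl : (l.all (· < 64) && (wd l 1 < 8 && (wd l 2 < 8 && wd l 4 < 8))) = true)
    (hl1 : (l.all (· < 64) && wd l 1 == 1) = true) {c d : ℕ} (hc : c < 64) (hd : d < 64)
    (e : x * ι (ac c) * x⁻¹ = ι (ac d)) :
    x * ι (ac (cjc (wd l) c)) * x⁻¹ = ι (ac (cjc (wd l) d)) := by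
  have hs := shift h hx tr (ev_mem_P3 hl) (ev_mem_P1 hl1)
  have h1 := conj_ac_wd hl hc
  have h2 := h.E3_comm hs (h.mem_E3.2 ⟨_, ac_mem h1.1, Or.inl rfl⟩)
  rw [← (conj_ac_wd hl hd).2, map_mul, map_mul, map_inv, ← e]
  rw [← h1.2, map_mul, map_mul, map_inv] at h2 ⊢
  generalize ι (ev g l) = p at h2 ⊢
  generalize ι (ac c) = y at h2 ⊢
  calc x * (p * y * p⁻¹) * x⁻¹
      = x * (p * y * p⁻¹ * (x⁻¹ * (p * x * p⁻¹))) * (p * x⁻¹ * p⁻¹) := by group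
    _ = _ := by rw [← h2]; group

theorem eqv' (hx : x ∈ Nh ι t) (tr : x * t * x⁻¹ = t * ι (g 1)) (l : List ℕ) {c c' d d' : ℕ}
    (hl : ((l.all (· < 64) && (wd l 1 < 8 && (wd l 2 < 8 && wd l 4 < 8))) &&
      ((l.all (· < 64) && wd l 1 == 1) && (c < 64 && cjc (wd l) c == c'))) = true) (hd : d < 64)
    (hd' : d' < 64) (e : x * ι (ac c) * x⁻¹ = ι (ac d)) (e' : x * ι (ac c') * x⁻¹ = ι (ac d')) :
    d' = cjc (wd l) d := by
  simp only [Bool.and_eq_true (l.all (· < 64) && _), Bool.and_eq_true (decide (c < 64)),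
    decide_eq_true_eq, beq_iff_eq] at hl
  obtain ⟨h1, h2, h3, rfl⟩ := hl
  exact ac_inj hd' (conj_ac_wd h1 hd).1 (h.inj (e'.symm.trans (eqv h hx tr h1 h2 h3 hd e)))

omit [Finite G] in
theorem cube (tr : x * t * x⁻¹ = t * ι (g 1)) (b1 : x * ι (g 1) * x⁻¹ = ι (g 1)) {l : Sp}
    (hl : l ∈ P1) (h3 : l ^ 3 = 1) : ∃ l' ∈ P1, x * ι l * x⁻¹ = ι l' := by
  have c1 : Commute (x * ι l * x⁻¹) (ι (g 1)) := by
    have : Commute (ι l) (ι (g 1)) := Commute.map (P1_comm hl) ι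
    have := this.conj x
    rwa [b1] at this
  have c2 : Commute (x * ι l * x⁻¹) (t * ι (g 1)) := by
    have : Commute (ι l) t := (h.ct l).symm
    have := this.conj x
    rwa [tr] at this
  have c3 := c2.mul_right c1.inv_right
  rw [mul_inv_cancel_right] at c3
  obtain ⟨l', e⟩ := h.cen_cube c3.eq (by rw [conj_pow, ← map_pow, h3, map_one]; group)
  refine ⟨l', mem_P1.2 (act_one_of_comm (h.inj ?_)), e⟩
  rw [map_mul, map_mul, ← e, c1.eq]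

omit [Finite G] in
theorem img (tr : x * t * x⁻¹ = t * ι (g 1)) (b1 : x * ι (g 1) * x⁻¹ = ι (g 1)) {l : Sp}
    (hl : l ∈ P1) (h3 : l ^ 3 = 1) {v : ℕ} (hv : v < 64) (hb : bf 1 v = 0)
    (e : x * ι (sg 1 v) * x⁻¹ = ι (sg 1 v)) {r : Sp} (hr : r = l * sg 1 v * l⁻¹) :
    ∃ w < 64, bf 1 w = 0 ∧ x * ι r * x⁻¹ = ι (sg 1 w) := by
  obtain ⟨l', hl', e'⟩ := cube h tr b1 hl h3
  obtain ⟨f1, f2⟩ := P1_conj_sg hl' hv hb
  refine ⟨_, act_lt l' v, f2, ?_⟩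
  rw [← f1, hr, map_mul, map_mul, map_inv, map_mul, map_mul, map_inv, ← e', ← e]
  conv_lhs => rw [e]
  group

theorem coset (hx : x ∈ Nh ι t) (tr : x * t * x⁻¹ = t * ι (g 1)) {p s : Sp} (hp : p ∈ P3)
    (hp1 : p ∈ P1) (e : x * ι p * x⁻¹ = ι s) : act s 1 = act p 1 ∧ act s 2 = act p 2 ∧
      act s 4 = act p 4 := by
  have h1 := mem_NE.1 hx.1 _ (shift h hx tr hp hp1)
  have h2 : x * (x⁻¹ * (ι p * x * (ι p)⁻¹)) * x⁻¹ = ι (p * s⁻¹) := by
    rw [map_mul, map_inv, ← e]; group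
  rw [h2] at h1
  obtain ⟨a, ha, f | f⟩ := h.mem_E3.1 h1
  · have h3 : p = a * s := by rw [← h.inj f]; group
    have h4 : ∀ u < 8, act s u = act p u := fun u hu => by
      have h5 : s = a⁻¹ * p := by rw [h3]; group
      rw [h5, act_mul, mem_A.1 (inv_mem ha) _ (P3_lt hp hu)]
    exact ⟨h4 1 (by omega), h4 2 (by omega), h4 4 (by omega)⟩
  · exact absurd f (h.ne_t _ _)

end G

theorem x1 : X1Stmt.{u} := by
  intro _ G _ _ ι t h nl c3 base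
  obtain ⟨x, hx, tr⟩ := base _ (g_mem_A (by omega : 1 < 8)) (c3 _ (g_mem_A (by omega)))
  have cL : ∀ a ∈ Lam, x * ι a * x⁻¹ = ι a := fun a ha => by
    rw [(mem_Nh.1 hx).2 a ha, mul_inv_cancel_right]
  -- the image of `b₁`
  obtain ⟨c1, hc1, e1⟩ := phi h nl c3 hx.1 (by omega : 1 < 64)
  have k1 : ∀ c < 64, c = cjc (wd [1, 16, 17]) c → c = cjc (wd [1, 32, 33]) c →
      c = cjc (wd [2, 32, 34]) c → c = cjc (wd [4, 16, 20]) c → c = 0 ∨ c = 1 := by decide +kernel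
  have b1 : x * ι (g 1) * x⁻¹ = ι (g 1) := by
    rcases k1 c1 hc1 (eqv' h hx tr _ (by decide +kernel) hc1 hc1 e1 e1)
      (eqv' h hx tr _ (by decide +kernel) hc1 hc1 e1 e1)
      (eqv' h hx tr _ (by decide +kernel) hc1 hc1 e1 e1)
      (eqv' h hx tr _ (by decide +kernel) hc1 hc1 e1 e1) with rfl | rfl
    · rw [ac_zero, map_one, conj_eq_one_iff, ← map_one ι, ← ac_zero] at e1
      exact absurd (ac_inj (by omega) (by omega) (h.inj e1)) (by omega)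
    · rwa [g1_ac]
  -- the images of `b₂`, `b₃`
  obtain ⟨c2, hc2, e2⟩ := phi h nl c3 hx.1 (by omega : 2 < 64)
  obtain ⟨c4, l4, e4⟩ := phi h nl c3 hx.1 (by omega : 4 < 64)
  have e6 : x * ι (ac 38) * x⁻¹ = ι (ac (c2 ^^^ c4 ^^^ 32)) := by
    rw [← ac_mul (xor_lt hc2 l4) (by omega), ← ac_mul hc2 l4, map_mul, map_mul, ← e2, ← e4,
      ← a23_ac, ← cL _ a23_Lam, a23_ac, show 38 = 2 ^^^ 4 ^^^ 32 from rfl,
      ← ac_mul (by decide) (by omega), ← ac_mul (by omega) (by omega), map_mul, map_mul]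
    group
  have k2 : ∀ c < 64, c = cjc (wd [1, 32, 33]) c → c = cjc (wd [2, 32, 34]) c → ∀ d < 64,
      d = cjc (wd [2, 32, 34, 4, 16, 20, 2, 32, 34]) c → c ^^^ d ^^^ 32 = cjc (wd [4, 16, 20]) c →
      ∃ k : Bool, c = 2 ^^^ (if k then 8 else 0) ∧ d = 4 ^^^ (if k then 16 else 0) := by
    decide +kernel
  obtain ⟨k, f2, f4⟩ := k2 c2 hc2 (eqv' h hx tr _ (by decide +kernel) hc2 hc2 e2 e2)
    (eqv' h hx tr _ (by decide +kernel) hc2 hc2 e2 e2) c4 l4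
    (eqv' h hx tr _ (by decide +kernel) hc2 l4 e2 e4)
    (eqv' h hx tr _ (by decide +kernel) hc2 (xor_lt (xor_lt hc2 l4) (by omega)) e2 e6)
  rw [f4] at e4
  rw [f2] at e2
  have b2 : x * ι (g 2) * x⁻¹ = ι (if k then g 2 * a12 else g 2) := by
    rw [g2_ac, a12_ac, e2, ac_mul (by omega) (by omega)]; cases k <;> rfl
  have b3 : x * ι (g 4) * x⁻¹ = ι (if k then g 4 * a13 else g 4) := by
    rw [g4_ac, a13_ac, e4, ac_mul (by omega) (by omega)]; cases k <;> rfl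
  -- the images of `r₁₂`, `r₁₃`
  have cu : ∀ l : List ℕ, ((l ++ (l ++ l)).all (· < 64) && (([] : List ℕ).all (· < 64) &&
      cols (wd (l ++ (l ++ l))) == cols (wd []))) = true → ev g l ^ 3 = 1 := fun l hl => by
    rw [pow_three, ← ev_append, ← ev_append]; exact weq hl
  have s6 : sg 1 6 = a12 * a13 := by
    rw [a12, a13, sg_mul (by omega) (by omega) (by decide) (by decide)]
    exact (mul_one _).symm
  have s48 : sg 1 48 = r12 * r13 := by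
    rw [r12, r13, sg_mul (by omega) (by omega) (by decide) (by decide)]
    exact (mul_one _).symm
  obtain ⟨v, hv, bv, ev1⟩ := img h tr b1 rho2_P1 (cu _ (by decide +kernel)) (by omega : 2 < 64)
    (by decide) (cL _ a12_Lam) (r := r12) (by
      rw [conj_sg _ (by omega) (by omega), rho2, act_wd (by decide) (by omega),
        act_wd (by decide) (by omega)]; rfl)
  obtain ⟨w, hw, bw, ew⟩ := img h tr b1 rho_P1 (cu _ (by decide +kernel)) (by omega : 4 < 64)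
    (by decide) (cL _ a13_Lam) (r := r13) (by
      rw [conj_sg _ (by omega) (by omega), rho, act_wd (by decide) (by omega),
        act_wd (by decide) (by omega)]; rfl)
  obtain ⟨z, hz, bz, ez⟩ := img h tr b1 (l := ev g [4, 32, 2, 16]) (ev_mem_P1 (by decide +kernel))
    (cu _ (by decide +kernel)) (by omega : 6 < 64)
    (by decide) (cL _ (s6 ▸ mul_mem a12_Lam a13_Lam)) (r := sg 1 48) (by
      rw [conj_sg _ (by omega) (by omega), act_wd (by decide) (by omega),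
        act_wd (by decide) (by omega)]; rfl)
  have bvw : bf v w = 0 := by
    have e : sg 1 z = sg 1 v * sg 1 w := h.inj (by
      rw [← ez, map_mul, ← ev1, ← ew, s48, map_mul]; group)
    rw [sg_mul hv hw bv bw] at e
    refine (bf_facts v hv w hw).2.1.resolve_right fun e1 => ?_
    rw [e1, pow_one] at e
    have bx : ∀ v < 64, ∀ w < 64, bf 1 v = 0 → bf 1 w = 0 → bf 1 (v ^^^ w) = 0 := by
      decide +kernel
    exact (sg_inj hz (xor_lt hv hw) bz (bx v hv w hw bv bw)).2 e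
  obtain ⟨-, p2, p4⟩ := coset h hx tr (T0_le_P3 r12_T0) (T0_le_P1 r12_T0) ev1
  obtain ⟨-, q2, q4⟩ := coset h hx tr (T0_le_P3 r13_T0) (T0_le_P1 r13_T0) ew
  rw [r12, sg, sg, act_wd (sg_lt (by omega) hv) (by omega), act_wd (by decide) (by omega)] at p2 p4
  rw [r13, sg, sg, act_wd (sg_lt (by omega) hw) (by omega), act_wd (by decide) (by omega)] at q2 q4
  have k3 : ∀ v < 64, wd [1, v, 1 ^^^ v] 2 = wd [1, 16, 1 ^^^ 16] 2 →
      wd [1, v, 1 ^^^ v] 4 = wd [1, 16, 1 ^^^ 16] 4 → bf 1 v = 0 → ∀ w < 64,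
      wd [1, w, 1 ^^^ w] 2 = wd [1, 32, 1 ^^^ 32] 2 →
      wd [1, w, 1 ^^^ w] 4 = wd [1, 32, 1 ^^^ 32] 4 → bf 1 w = 0 → bf v w = 0 →
      ∃ c < 64, wd (aw c) v / 2 = 16 / 2 ∧ wd (aw c) w / 2 = 32 / 2 := by decide +kernel
  obtain ⟨c, hc, g1, g2⟩ := k3 v hv p2 p4 bv w hw q2 q4 bw bvw
  have ha := ac_mem hc
  have fin : ∀ {v u : ℕ}, v < 64 → u < 64 → bf 1 v = 0 → bf 1 u = 0 → wd (aw c) v / 2 = u / 2 →
      x * ι (sg 1 u) * x⁻¹ = ι (sg 1 v) →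
      ι (ac c) * x * ι (sg 1 u) = ι (sg 1 u) * (ι (ac c) * x) := fun {v u} hv hu bv bu e f => by
    obtain ⟨f1, f2⟩ := P1_conj_sg (A_le_P1 ha) hv bv
    rw [← act_wd (aw_lt hc) hv, ← ac] at e
    rw [(sg_inj (act_lt _ _) hu f2 bu).1.2 e] at f1
    rw [← mul_inv_eq_iff_eq_mul]
    conv_rhs => rw [← f1, map_mul, map_mul, map_inv, ← f]
    group
  have cj : ∀ {a b : Sp}, b ∈ A → x * ι a * x⁻¹ = ι b →
      ι (ac c) * x * ι a * (ι (ac c) * x)⁻¹ = ι b := fun {a b} hb e => by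
    have : ac c * b * (ac c)⁻¹ = b := by rw [A_comm ha hb, mul_inv_cancel_right]
    conv_rhs => rw [← this, map_mul, map_mul, map_inv, ← e]
    group
  have cm : ∀ {a : Sp}, a ∈ A → x * ι a * x⁻¹ = ι a →
      ι (ac c) * x * ι a = ι a * (ι (ac c) * x) := fun ha e => mul_inv_eq_iff_eq_mul.1 (cj ha e)
  refine ⟨ι (ac c) * x, k, ?_, cV_of (cm (g_mem_A (by omega)) b1)
    (cm (Lam_le_A a12_Lam) (cL _ a12_Lam)) (cm (Lam_le_A a13_Lam) (cL _ a13_Lam))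
    (fin hv (by omega) bv (by decide) g1 ev1) (fin hw (by omega) bw (by decide) g2 ew),
    cm (Lam_le_A a23_Lam) (cL _ a23_Lam), cj ?_ b2, cj ?_ b3⟩
  · have e := h.conj_tl (ac c) (g 1)
    rw [A_comm ha (g_mem_A (by omega)), mul_inv_cancel_right] at e
    rw [← e, ← tr]; group
  · split_ifs
    exacts [mul_mem (g_mem_A (by omega)) (Lam_le_A a12_Lam), g_mem_A (by omega)]
  · split_ifs
    exacts [mul_mem (g_mem_A (by omega)) (Lam_le_A a13_Lam), g_mem_A (by omega)]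

end Cfsg.Agent.H69.S6
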