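import Cfsg.Agent.H63.AnDefs2
import Cfsg.Agent.H52.PComponent
import Cfsg.Agent.H86.Alt3

/-!
# Project AN, piece I3: the centraliser of `t d` normalises the alternating group on the rest
-/

set_option autoImplicit false

namespace Cfsg.Agent.H69.AnI3

open Cfsg Cfsg.Agent.H63 Cfsg.Agent.H63.SL Subgroup
open Cfsg.Agent.H63.AN
open Cfsg.Agent.H7.AA (ev d2 Acts KA NA acts_of_KA acts_one)
open Cfsg.Agent.H78 (c3 altOn symOn mem_symOn mem_altOn)
open Equiv (swap Perm)
open Equiv.Perm (sign)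
open scoped commutatorElement

universe u

theorem hasB_equiv {G G' : Type*} [Group G] [Group G'] [Finite G] (e : G ≃* G')
    (h : HasBProperty G) : HasBProperty G' := by
  have : Fact (Nat.Prime 2) := ⟨Nat.prime_two⟩
  intro t' ht'
  obtain ⟨t, rfl⟩ := e.surjective t'
  have ht : orderOf t = 2 := by rw [← ht']; exact (e.orderOf_eq t).symm
  have hm : (centralizer ({t} : Set G)).map (e : G →* G') = centralizer ({e t} : Set G') := by
    ext y
    obtain ⟨x, rfl⟩ := e.surjective y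
    rw [mem_centralizer_singleton_iff, ← map_mul, ← map_mul, e.apply_eq_iff_eq,
      ← mem_centralizer_singleton_iff]
    exact mem_map_iff_mem (f := (e : G →* G')) e.injective
  let f : centralizer ({t} : Set G) ≃* centralizer ({e t} : Set G') :=
    (e.subgroupMap _).trans (MulEquiv.subgroupCongr hm)
  have hc : (centralizer ({e t} : Set G')).subtype.comp f.toMonoidHom =
      e.toMonoidHom.comp (centralizer ({t} : Set G)).subtype := MonoidHom.ext fun _ => rfl
  have h0 := h t ht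
  unfold oddCore at h0 ⊢
  rw [← H52.map_pLayer_equiv (p := 2) f, ← H52.map_pPrimeCore_equiv (p := 2) f,
    ← map_commutator, map_map, hc, ← map_map, ← H52.map_pPrimeCore_equiv (p := 2) e]
  exact map_mono h0

theorem hasB {G : Type*} [Group G] [Finite G] (h : HasStrongBProperty G) : HasBProperty G :=
  hasB_equiv ((QuotientGroup.quotientBot (G := (⊤ : Subgroup G))).trans topEquiv) (h ⊤ ⊥)

theorem core_bot {G : Type*} [Group G] [Finite G] {X A : Subgroup G} (hn : X.Normal)
    (hs : IsSimpleGroup X) (hc : C[X] = ⊥) (hA : A ≤ X) (he : Even (Nat.card A)) :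
    oddCore G = ⊥ := by
  have ho : (Nat.card (oddCore G)).Coprime 2 := H52.coprime_card_pPrimeCore
  have hN : (oddCore G).Normal := inferInstance
  rcases (hN.subgroupOf X).eq_bot_or_eq_top with e | e
  · rw [subgroupOf_eq_bot] at e
    rw [eq_bot_iff, ← hc]
    intro y hy
    rw [mem_centralizer_iff]
    intro x hx
    exact ((commute_of_normal_of_disjoint _ _ hN hn e y x hy hx).symm).eq
  · rw [subgroupOf_eq_top] at e
    have := (even_iff_two_dvd.1 he).trans (card_dvd_of_le (hA.trans e))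
    exact absurd (Nat.Coprime.eq_one_of_dvd ho.symm this) (by decide)

section Sw

variable {α : Type} [Fintype α] [DecidableEq α]

omit [Fintype α] in
theorem sw_ne {a b e : α} (hab : a ≠ b) (hae : a ≠ e) (hc : Commute (swap a e) (swap a b)) :
    e = b := by
  by_contra h
  have := congrArg (fun p : Perm α => p a) hc.eq
  simp only [Equiv.Perm.mul_apply, Equiv.swap_apply_left] at this
  rw [Equiv.swap_apply_of_ne_of_ne hab.symm (Ne.symm h),
    Equiv.swap_apply_of_ne_of_ne hae.symm h] at this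
  exact h this.symm

omit [Fintype α] in
theorem sw_fix {a b c e : α} (hab : a ≠ b) (hce : c ≠ e) (hc : Commute (swap c e) (swap a b))
    (hne : swap c e ≠ swap a b) : swap c e a = a := by
  refine Equiv.swap_apply_of_ne_of_ne ?_ ?_
  · rintro rfl
    exact hne (by rw [sw_ne hab hce hc])
  · rintro rfl
    rw [Equiv.swap_comm c a] at hc hne
    exact hne (by rw [sw_ne hab hce.symm hc])

theorem sw_mem {a b c e : α} (hab : a ≠ b) (hce : c ≠ e) (hc : Commute (swap c e) (swap a b))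
    (hne : swap c e ≠ swap a b) : swap c e ∈ symOn ({a, b}ᶜ : Finset α) := by
  rw [mem_symOn]
  intro x hx
  simp only [Finset.mem_compl, not_not, Finset.mem_insert, Finset.mem_singleton] at hx
  rcases hx with rfl | rfl
  · exact sw_fix hab hce hc hne
  · rw [Equiv.swap_comm a x] at hc hne
    exact sw_fix hab.symm hce hc hne

theorem sym_comm {a b : α} {σ : Perm α} (hσ : σ ∈ symOn ({a, b}ᶜ : Finset α)) :
    Commute σ (swap a b) :=
  H78.commute_of_mem_symOn disjoint_compl_left hσ (H78.swap_mem_symOn (by simp) (by simp))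

end Sw

variable {G : Type u} [Group G] {α : Type} [Fintype α] [DecidableEq α]
  {ψ : alternatingGroup α →* G} {t : G} {j : Perm α →* G}

theorem ls_equiv (hi : Function.Injective ψ) (S : Finset α) : Nonempty (LS ψ S ≃* altOn S) :=
  ⟨(equivMapOfInjective _ ψ hi).symm.trans (subgroupOfEquivOfLe (H78.altOn_le_alternating S))⟩

theorem ls_facts (hi : Function.Injective ψ) {S : Finset α} (hS : 5 ≤ S.card) :
    IsSimpleGroup (LS ψ S) ∧ ¬ IsMulCommutative (LS ψ S) ∧ Even (Nat.card (LS ψ S)) := by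
  obtain ⟨e⟩ := ls_equiv hi S
  obtain ⟨e'⟩ := H86.nonempty_altOn_equiv S
  have h1 := alternatingGroup.isSimpleGroup (α := Fin S.card) (by simpa using hS)
  have h2 : IsSimpleGroup (LS ψ S) := (e.trans e').isSimpleGroup
  have h3 : 2 * Nat.card (LS ψ S) = S.card.factorial := by
    rw [Nat.card_congr e.toEquiv, H78.two_mul_card_altOn (by omega)]
  have h4 : 120 ∣ S.card.factorial := Nat.factorial_dvd_factorial hS
  have h5 : 60 ∣ Nat.card (LS ψ S) := by omega
  refine ⟨h2, fun hc => ?_, even_iff_two_dvd.2 (by omega)⟩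
  let _ : CommGroup (LS ψ S) := { mul_comm := hc.is_comm.comm }
  have : (Nat.card (LS ψ S)).Prime := IsSimpleGroup.prime_card
  rcases (Nat.dvd_prime this).1 (Dvd.dvd.trans (by decide : 2 ∣ 60) h5) with e | e
  · omega
  · rw [← e] at h5
    omega

/-- An element that fixes the pair `{t, d}` normalises the alternating group on the rest. -/
theorem nrm [Finite G] (B : Bs ψ t) (C : CI ψ t j) {a b : α} (hab : a ≠ b) {h : G}
    (hh : (h * t * h⁻¹ = t ∧ h * j (swap a b) * h⁻¹ = j (swap a b)) ∨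
      (h * t * h⁻¹ = j (swap a b) ∧ h * j (swap a b) * h⁻¹ = t)) :
    h ∈ N[LS ψ {a, b}ᶜ] := by
  have h5 : 5 ≤ Fintype.card α := by have := B.nine; omega
  have ji : ∀ σ τ, j σ = j τ → σ = τ := fun σ τ e =>
    (C.sec.ac σ).uniq h5 B.inj (e ▸ C.sec.ac τ)
  have jt : ∀ c e, c ≠ e → j (swap c e) ≠ t := fun c e hce e1 =>
    hce (Equiv.swap_eq_one_iff.1 ((C.sec.ac _).uniq h5 B.inj (e1 ▸ acts_of_KA B.tK)))
  have cj : ∀ x y : G, Commute x y → Commute (h * x * h⁻¹) (h * y * h⁻¹) := fun x y hc =>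
    hc.map (MulAut.conj h)
  have step : ∀ c ∈ ({a, b}ᶜ : Finset α), ∀ e ∈ ({a, b}ᶜ : Finset α), c ≠ e →
      ∃ τ ∈ symOn ({a, b}ᶜ : Finset α), sign τ = -1 ∧ h * j (swap c e) * h⁻¹ = j τ := by
    intro c hc e he hce
    have c1 := cj _ _ (C.sec.cm (swap c e))
    have c2 := cj _ _ ((sym_comm (H78.swap_mem_symOn hc he)).map j)
    have n1 : h * j (swap c e) * h⁻¹ ≠ h * t * h⁻¹ := fun e1 => jt c e hce (by simpa using e1)
    have n2 : h * j (swap c e) * h⁻¹ ≠ h * j (swap a b) * h⁻¹ := fun e1 => by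
      have e2 := ji _ _ (show j (swap c e) = j (swap a b) by simpa using e1)
      have e3 := mem_symOn.1 (H78.swap_mem_symOn hc he) a (by simp)
      rw [e2, Equiv.swap_apply_left] at e3
      exact hab e3.symm
    have k : Commute (h * j (swap c e) * h⁻¹) t ∧ Commute (h * j (swap c e) * h⁻¹) (j (swap a b)) ∧
        h * j (swap c e) * h⁻¹ ≠ t ∧ h * j (swap c e) * h⁻¹ ≠ j (swap a b) := by
      rcases hh with ⟨e1, e2⟩ | ⟨e1, e2⟩
      · rw [e1] at c1 n1
        rw [e2] at c2 n2
        exact ⟨c1, c2, n1, n2⟩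
      · rw [e1] at c1 n1
        rw [e2] at c2 n2
        exact ⟨c2, c1, n2, n1⟩
    rcases C.dm a b hab _ ((C.cj c e hce).trans (isConj_iff.2 ⟨h, rfl⟩)) k.1 k.2.1 with
      e1 | ⟨c', e', hce', e1⟩
    · exact absurd e1 k.2.2.1
    · refine ⟨swap c' e', sw_mem hab hce' ?_ fun e2 => k.2.2.2 (by rw [e1, e2]),
        Equiv.Perm.sign_swap hce', e1⟩
      refine ji _ _ ?_
      rw [map_mul, map_mul, ← e1]
      exact k.2.1.eq
  have all : ∀ σ ∈ symOn ({a, b}ᶜ : Finset α),
      ∃ τ ∈ symOn ({a, b}ᶜ : Finset α), sign τ = sign σ ∧ h * j σ * h⁻¹ = j τ := by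
    intro σ hσ
    refine H78.symOn_induction (P := fun σ => ∃ τ ∈ symOn ({a, b}ᶜ : Finset α),
      sign τ = sign σ ∧ h * j σ * h⁻¹ = j τ) ⟨1, one_mem _, rfl, by simp⟩ ?_ hσ
    rintro f - c hc e he hce ⟨τ, hτ, s1, e1⟩
    obtain ⟨τ', hτ', s2, e2⟩ := step c hc e he hce
    refine ⟨τ' * τ, mul_mem hτ' hτ, ?_, ?_⟩
    · rw [Equiv.Perm.sign_mul, Equiv.Perm.sign_mul, s1, s2, Equiv.Perm.sign_swap hce]
    · rw [map_mul, map_mul, ← e1, ← e2]; group
  refine mem_normalizer_fintype fun n hn => ?_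
  obtain ⟨σ, hσ, rfl⟩ := mem_LS.1 hn
  obtain ⟨τ, hτ, s1, e1⟩ := all σ hσ.1
  have s2 : sign σ = 1 := hσ.2
  exact mem_LS.2 ⟨τ, ⟨hτ, s1.trans s2⟩, by rw [← C.sec.ev τ (s1.trans s2), ← C.sec.ev σ s2, e1]⟩

theorem i3 (zs : ZsStmt.{u}) (bc : BcStmt.{u}) (i2 : I2Stmt.{u}) : I3Stmt.{u} := by
  intro G _ _ α _ _ ψ t B K hall j C hC a b hab X g
  show C1[t * j (swap a b)] ≤ N[LS ψ {a, b}ᶜ]
  have h5 : 5 ≤ Fintype.card α := by have := B.nine; omega
  have I2 : ∀ e, IsConj t e → e * t * e⁻¹ ≠ j (swap a b) := i2 ψ t B K hall j C hC a b hab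
  have dt : Commute (j (swap a b)) t := C.sec.cm _
  have dd : j (swap a b) * j (swap a b) = 1 := by rw [← map_mul, Equiv.swap_mul_self, map_one]
  have at1 : Acts ψ t 1 := acts_of_KA B.tK
  have au : Acts ψ (t * j (swap a b)) (swap a b) := by
    simpa using at1.mul (C.sec.ac (swap a b))
  have cjd := C.cj a b hab
  have hN := fun h hh => nrm B C hab (h := h) hh
  have p1 := C.p1
  generalize j (swap a b) = d at *
  have s1 : swap a b ≠ 1 := fun e => hab (Equiv.swap_eq_one_iff.1 e)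
  have tu : t * (t * d) = d := by rw [← mul_assoc, B.t2, one_mul]
  have uu : t * d * (t * d) = 1 := by
    rw [mul_assoc, ← mul_assoc d, dt.eq, mul_assoc, dd, mul_one, B.t2]
  have u1 : t * d ≠ 1 := fun e => s1 (au.uniq h5 B.inj (e ▸ acts_one))
  have tu1 : t ≠ t * d := fun e => s1 (au.uniq h5 B.inj (e ▸ at1))
  have ctu : Commute t (t * d) := (Commute.refl t).mul_right dt.symm
  have hS : 5 ≤ ({a, b}ᶜ : Finset α).card := by
    rw [Finset.card_compl, Finset.card_pair hab]
    have := B.nine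
    omega
  obtain ⟨f1, f2, f3⟩ := ls_facts B.inj hS
  have hZ := zs t (t * d) B.t2 uu B.t1 u1 tu1 ctu (fun c hc hk => by
    have cd : c * d * c⁻¹ = c * t * c⁻¹ * (t * d) := by
      calc c * d * c⁻¹ = c * t * c⁻¹ * (c * (t * d) * c⁻¹) := by
            conv_lhs => rw [← tu]
            group
        _ = _ := by rw [hc.eq, mul_inv_cancel_right]
    have ct : IsConj t (c * t * c⁻¹) := isConj_iff.2 ⟨c, rfl⟩
    have cd' : IsConj t (c * t * c⁻¹ * (t * d)) :=
      cd ▸ cjd.trans (isConj_iff.2 ⟨c, rfl⟩)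
    generalize c * t * c⁻¹ = e at *
    rcases hk with hk | hk
    · by_contra hne
      rw [not_or] at hne
      have hk' : Commute e t := commutatorElement_eq_one_iff_commute.1 hk
      obtain ⟨ρ, hρ⟩ := K.act e hk'
      have w1 := p1 e ρ ⟨ct, hk', hne.1, hρ⟩
      have w2 := p1 (e * (t * d)) (ρ * swap a b) ⟨cd', hk'.mul_left ctu.symm, fun e1 => hne.2 (by
        rw [← mul_one e, ← uu, ← mul_assoc e, e1]), hρ.mul au⟩
      have := w2.sign_eq
      rw [Equiv.Perm.sign_mul, w1.sign_eq, Equiv.Perm.sign_swap hab] at this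
      exact absurd this (by decide)
    · refine absurd ?_ (I2 e ct)
      rw [commutatorElement_def, mul_inv_eq_iff_eq_mul] at hk
      rw [hk, mul_assoc, dt.eq, tu])
  refine bc (core_bot g.nrm g.simple g.cX ((map_le_range _ _).trans g.le) f3) (hasB g.sB) (t * d) _
    (orderOf_eq_prime (by rw [sq, uu]) u1) ?_ f1 f2 f3 fun c hc => ?_
  · intro x hx
    obtain ⟨σ, hσ, rfl⟩ := mem_LS.1 hx
    rw [mem_centralizer_singleton_iff]
    exact (au.comm hσ.2 (sym_comm hσ.1).symm.eq).symm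
  · have hc' : Commute c (t * d) := mem_centralizer_singleton_iff.1 hc
    obtain ⟨y, hy, e⟩ := hZ c hc'
    have hy' : Commute y (t * d) := mem_centralizer_singleton_iff.1 (map_subtype_le _ hy)
    have hu : y * c * (t * d) * (y * c)⁻¹ = t * d := by
      rw [(hy'.mul_left hc').eq, mul_inv_cancel_right]
    have hd : y * c * d * (y * c)⁻¹ = y * c * t * (y * c)⁻¹ * (t * d) := by
      rw [← hu]
      conv_lhs => rw [← tu]
      group
    refine ⟨y, hy, hN _ ?_⟩
    rcases e with e | e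
    · exact Or.inl ⟨e, by rw [hd, e, tu]⟩
    · exact Or.inr ⟨by rw [e, tu], by rw [hd, e, mul_assoc t, uu, mul_one]⟩

end Cfsg.Agent.H69.AnI3
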