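import Mathlib
import Cfsg.Agent.H41.UpB

/-!
# Connected spaces that are locally `Fi₂₃` are the space of `Fi₂₄`
-/

set_option autoImplicit false
set_option maxRecDepth 1000000

namespace Cfsg.Agent.H69.FisE

open Cfsg.Agent.H41 Cfsg.Agent.H41.Amb Cfsg.Agent.H42

universe u

theorem ns_check : candB N23.ap 31671 15 [([0], true), ([1], true), ([2], true), ([3], true), ([4], true), ([5], true), ([7], true), ([8], true), ([12], true), ([9], true)] = 0 := by decide +kernel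

theorem ns23 : ∀ r ∈ L23.F.nb ⟨3510, by norm_num⟩ ∩ L23.F.nb (pn 31671 9),
    ∃ y ∈ L23.F.nb ⟨3510, by norm_num⟩ ∩ L23.F.nb (pn 31671 9), y ∉ L23.F.cl r := by
  intro r hr
  by_contra hc
  push Not at hc
  have h1 : r ∈ bs 31671 (candB N23.ap 31671 15 [([0], true), ([1], true), ([2], true), ([3], true), ([4], true), ([5], true), ([7], true), ([8], true), ([12], true), ([9], true)]) := by
    rw [N23.act.mem_candB (by norm_num)]
    have h2 : ∀ j ∈ ([0, 1, 2, 3, 4, 5, 7, 8] : List ℕ), N23.π j r = r := fun j hj => by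
      have h3 := (by decide +kernel : ∀ j ∈ ([0, 1, 2, 3, 4, 5, 7, 8] : List ℕ), j ∈ L23.pl ∧ ∀ i ∈ ([12, 9] : List ℕ),
        pn 31671 j ≠ pn 31671 i ∧ ptW N23.ap [i] (pn 31671 j) (pn 31671 j) = true) j hj
      rw [← L23.TP j h3.1]
      exact FS.cl_comm.mp (hc _ ⟨L23.mem_nb_of (i := 12) (by decide) (h3.2 _ (by decide)).1 (h3.2 _ (by decide)).2,
        L23.mem_nb_of (by decide) (h3.2 _ (by decide)).1 (h3.2 _ (by decide)).2⟩)
    have h3 : N23.π 12 r = r := L23.T_w ▸ hr.1.2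
    have h4 : N23.π 9 r = r := L23.T_j ▸ hr.2.2
    simp only [List.forall_mem_cons] at h2
    simp [h2, h3, h4]
  rw [ns_check, bs_zero] at h1
  exact h1

theorem loc_ns23 {Y : Type*} {F' : FS Y} (hL : L23.F.Loc F') {x d c e : Y} (hd : d ∈ F'.nb x) (hc : c ∈ F'.nb x)
    (he : e ∈ F'.nb x) (hdc : c ∉ F'.cl d) (hed : e ∈ F'.nb d) (hec : e ∈ F'.nb c) :
    ∃ y ∈ F'.nb d ∩ F'.nb c, y ∉ F'.cl e :=
  FS.loc_ns L23.lm hL (k := pn 31671 9)
    (fun p hp => by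
      obtain ⟨g, hg, h⟩ := L23.trA (pn 31671 9) (fun h => absurd ((L23.lev.cl _).mp h) (by decide)) p hp
      exact ⟨g, FS.grp_le_aut hg, h⟩) ns23 hd hc he hdc hed hec

/-- the string `y - c - y'` -/
theorem str_cl {Y : Type*} {F' : FS Y} {y y' c : Y} (h : y' ∈ F'.cl y) (hne : y' ≠ y) (h1 : c ∉ F'.cl y) (h2 : c ∉ F'.cl y') :
    F'.T y' (F'.T y c) ∈ F'.cl c ∧ F'.T y' (F'.T y c) ≠ c := by
  have e1 : F'.T y c = F'.T c y := FS.T_swap h1
  have e2 : F'.T y' c = F'.T c y' := FS.T_swap h2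
  have hc : F'.T y * F'.T y' = F'.T y' * F'.T y := FS.fix_iff_commute.mp h
  refine ⟨?_, fun e => ?_⟩
  · have a1 : F'.T c (F'.T y' (F'.T y c)) = F'.T (F'.T c y') (F'.T c (F'.T y c)) :=
      (FS.aut_apply (FS.T_mem_aut c) _ _).symm
    rw [FS.mem_cl, a1, e1, FS.T_T, ← e2, FS.aut_T (FS.T_mem_aut y'), FS.T_inv]
    simp only [Equiv.Perm.mul_apply]
    rw [FS.cl_comm.mp h]
  · have e3 : F'.T y c = F'.T y' c := by
      conv_rhs => rw [← e, FS.T_T]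
    rw [e1, e2] at e3
    exact hne ((F'.T c).injective e3).symm

theorem k_check : candB N24.ap 306936 19 [([1], true), ([2], true), ([3], true), ([4], true), ([5], true), ([6], true), ([7], true), ([8], true), ([12], true), ([11], false)] = Nat.lor (pt (p 10)) (pt (31672 : Fin 306936)) := by
  decide +kernel

/-- the involution of the point `14710` -/
def w0 : List ℕ := [13, 9, 8, 13, 3, 7, 8, 13, 4, 3, 2, 3, 4, 13, 8, 7, 3, 13, 8, 9, 13]

theorem s_check : sub (appW N24.ap (w0 ++ ([1, 3] ++ (w0 ++ [3, 1]))) (Nat.lor (pt (p 1)) (Nat.lor (pt (p 2)) (Nat.lor (pt (p 3)) (Nat.lor (pt (p 4)) (Nat.lor (pt (p 5)) (Nat.lor (pt (p 6)) (Nat.lor (pt (p 7)) (Nat.lor (pt (p 8)) (pt (p 12)))))))))))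
   (Nat.lor (Nat.land (ones 31671) (Nat.land (fixB N24.ap 306936 19 [12]) (fixB N24.ap 306936 19 [10]))) (orb N24.ap (pals B24) 9 (pt (p 9)))) = true := by decide +kernel

theorem c_check : appW N24.ap (w0 ++ [1, 3]) (pt (14710 : Fin 306936)) = appW N24.ap [1, 3] (pt (14710 : Fin 306936)) := by
  decide +kernel

theorem f1 {Y : Type u} {F' : FS Y} (hL : L23.F.Loc F') {φ : Fin 306936 → Y} {d : Y} (h1 : F.Chart F' φ (F.N C1) d)
    (h2 : F.Chart F' φ (F.N (insert (p 12) ∅)) (φ (p 12))) (ho : φ (p 11) = d)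
    (hS : Sub1 F 31671 (p 12) (p 10) {q | q ∈ F.N C1 ∧ φ q ∈ F'.nb (φ (p 10))}) :
    p 9 ∈ {q | q ∈ F.N C1 ∧ φ q ∈ F'.nb (φ (p 10))} ∧
      (14710 : Fin 306936) ∈ {q | q ∈ F.N C1 ∧ φ q ∈ F'.nb (φ (p 10))} := by
  set S := {q | q ∈ F.N C1 ∧ φ q ∈ F'.nb (φ (p 10))} with hSdef
  by_cases hy : (14710 : Fin 306936) ∈ S
  · refine ⟨?_, hy⟩
    have h4 := hS.closed _ hy _ ((N24.act.orb_mem_iff (presv24 hS) (mem_bs_of_tb orb24)).mpr hy)
    rwa [T_y0, N24.act.apply_eq (q := p 9) (by decide +kernel)] at h4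
  exfalso
  have hN : ∀ i ∈ ([1, 2, 3, 4, 5, 6, 7, 8, 10, 11] : List ℕ), p i ∈ F.N (insert (p 12) ∅) := fun i hi =>
    mem_N_insert (n0 := 306936) (fun _ => mem_N0) (by revert i; decide +kernel)
  have hk := hN 10 (by decide)
  have ho2 := hN 11 (by decide)
  have hdc : φ (p 10) ∉ F'.cl d := ho ▸ fun h => not_mem_cl (by decide +kernel) ((h2.cl_iff ho2 hk).mp h)
  have hx1 : p 3 ∈ F.N C1 := mem_N1.mpr (by decide)
  have hx2 := hN 3 (by decide)
  obtain ⟨y', hy1, hy2⟩ := loc_ns23 hL (x := φ (p 3)) (FS.nb_comm.mp (h1.mem hx1))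
    ((h2.nb_iff hx2 hk).mpr (mem_nb (by decide +kernel))) (FS.nb_comm.mp (h2.mem hx2)) hdc
    (h1.mem (mem_N1.mpr (by decide))) (FS.nb_comm.mp (h2.mem hk))
  obtain ⟨y, hy3, rfl⟩ := h1.surj hy1.1
  have hyS : y ∈ S := ⟨hy3, hy1.2⟩
  have h9 : p 9 ∈ S := by
    have h4 := bs_subset_of_sub cover24 306936 (hS.mem_dif N24.act (by norm_num) L24.TP (by decide) hyS
      fun h => hy2 ((h1.cl_iff (mem_N1.mpr (by decide)) hy3).mpr h))
    rw [bs_lor, bs_lor] at h4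
    rcases h4 with h4 | h4 | h4
    · exact (N24.act.orb_mem_iff (presv24 hS) h4).mp hyS
    · exact absurd ((N24.act.orb_mem_iff (presv24 hS) h4).mp hyS) hy
    · exact absurd ((N24.act.orb_mem_iff (presv24 hS) h4).mp hyS) (bad24 hS)
  have hl := letters24 hS
  -- the two points `y0`, `y1`
  set y0 : Fin 306936 := 14710 with hy0
  have hy0N : y0 ∈ F.N C1 := mem_N1.mpr (by decide)
  set y1 : Fin 306936 := wp π [1, 3] y0 with hy1def
  have ha : wp π [1, 3] ∈ F.aut := wp_aut (by decide)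
  have e1 : y1 = F.T (p 1) (F.T (p 3) y0) := by
    rw [TP (by decide), TP (by decide)]; simp [hy1def]
  have hy1N : y1 ∈ F.N C1 := e1 ▸ h1.closed _ (hl 1 (by decide)).1 _ (h1.closed _ hx1 _ hy0N)
  have hy1S : y1 ∉ S := fun h => hy (by
    have := hS.closed _ (hl 3 (by decide)) _ (hS.closed _ (hl 1 (by decide)) _ h)
    rwa [e1, FS.T_T, FS.T_T] at this)
  have hT0 : F.T y0 = wp π w0 := T_y0
  have hT1 : F.T y1 = wp π ([1, 3] ++ (w0 ++ [3, 1])) := by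
    rw [hy1def, FS.aut_T ha, hT0, wp_append, wp_append, mul_assoc]
    congr 2
    have := fun i (h : i < 14) => TP h ▸ F.sq (p i)
    rw [inv_eq_iff_mul_eq_one]
    simp only [wp_cons, wp_nil, mul_one]
    rw [mul_assoc, ← mul_assoc (π 3), this 3 (by decide), one_mul, this 1 (by decide)]
  have hcl : y1 ∈ F.cl y0 := by
    rw [FS.mem_cl, hT0, hy1def, ← Equiv.Perm.mul_apply, ← wp_append]
    have a1 := N24.act.bs_appW (w0 ++ [1, 3]) (pt y0)
    have a2 := N24.act.bs_appW [1, 3] (pt y0)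
    rw [c_check, a2, bs_pt, Set.image_singleton, Set.image_singleton] at a1
    exact (Set.singleton_injective a1).symm
  have hne : y1 ≠ y0 := N24.act.apply_ne (by decide +kernel)
  have nc : ∀ z ∈ F.N C1, z ∉ S → φ (p 10) ∉ F'.cl (φ z) := fun z hz hzS h => hzS ⟨hz, fun e =>
    hdc (e ▸ (h1.mem hz).2), FS.cl_comm.mp h⟩
  obtain ⟨c1, c2⟩ := str_cl (F' := F') (y := φ y0) (y' := φ y1) (c := φ (p 10)) ((h1.cl_iff hy0N hy1N).mpr hcl)
    (fun e => hne (h1.bij.injOn hy1N hy0N e)) (nc _ hy0N hy) (nc _ hy1N hy1S)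
  set c' := F'.T (φ y1) (F'.T (φ y0) (φ (p 10))) with hc'
  have au : F'.T (φ y1) * F'.T (φ y0) ∈ F'.aut := F'.aut.mul_mem (FS.T_mem_aut _) (FS.T_mem_aut _)
  have c3 : c' ∉ F'.cl d := fun h => hdc ((FS.aut_mem_cl_of_fix au (by
    rw [Equiv.Perm.mul_apply, FS.cl_comm.mp (h1.mem hy0N).2, FS.cl_comm.mp (h1.mem hy1N).2])).mp h)
  have c4 : ∀ i ∈ ([1, 2, 3, 4, 5, 6, 7, 8, 12] : List ℕ), c' ∈ F'.cl (φ (p i)) := fun i hi => by
    have hiN := (hl i hi).1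
    have a1 : F.T y0 (F.T y1 (p i)) ∈ S := by
      rw [hT0, hT1, ← Equiv.Perm.mul_apply, ← wp_append]
      have a2 := bs_subset_of_sub s_check 306936 (show wp π (w0 ++ ([1, 3] ++ (w0 ++ [3, 1]))) (p i) ∈ _ by
        rw [N24.act.bs_appW]
        refine Set.mem_image_of_mem _ ?_
        simp only [bs_lor, bs_pt, List.mem_cons, List.not_mem_nil, or_false] at hi ⊢
        rcases hi with rfl | rfl | rfl | rfl | rfl | rfl | rfl | rfl | rfl <;> simp)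
      rw [bs_lor, bs_land, bs_land] at a2
      rcases a2 with ⟨a2, a3, a4⟩ | a2
      · have a5 := mem_bs_ones.mp a2
        refine (hS.iff _ a5 ((N24.act.mem_cl_iff (by norm_num) (by simpa using TP (i := 12) (by decide))).mpr a3)).mpr
          ⟨fun e => ?_, (N24.act.mem_cl_iff (by norm_num) (by simpa using TP (i := 10) (by decide))).mpr a4⟩
        rw [e] at a5
        exact absurd a5 (by decide)
      · exact (N24.act.orb_mem_iff (presv24 hS) a2).mpr h9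
    have a2 := a1.2.2
    rw [h1.qm _ hy0N _ (h1.closed _ hy1N _ hiN), h1.qm _ hy1N _ hiN] at a2
    have a3 := (FS.aut_mem_cl au).mpr (show F'.T (φ y0) (F'.T (φ y1) (φ (p i))) ∈ F'.cl (φ (p 10)) from a2)
    simp only [Equiv.Perm.mul_apply, FS.T_T] at a3
    exact FS.cl_comm.mp a3
  have c5 : c' ∈ F'.nb (φ (p 12)) := ⟨fun e => c3 (e ▸ (h1.mem (mem_N1.mpr (by decide))).2), c4 12 (by decide)⟩
  obtain ⟨k, hk2, hkc⟩ := h2.surj c5
  have b1 : k ∈ bs 306936 (Nat.lor (pt (p 10)) (pt (31672 : Fin 306936))) := by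
    rw [← k_check, N24.act.mem_candB (by norm_num)]
    have a1 : ∀ i ∈ ([1, 2, 3, 4, 5, 6, 7, 8] : List ℕ), π i k = k := fun i hi => by
      obtain ⟨b1, b2, b3⟩ := (by decide : ∀ i ∈ ([1, 2, 3, 4, 5, 6, 7, 8] : List ℕ), i < 14 ∧
        i ∈ ([1, 2, 3, 4, 5, 6, 7, 8, 10, 11] : List ℕ) ∧ i ∈ ([1, 2, 3, 4, 5, 6, 7, 8, 12] : List ℕ)) i hi
      rw [← TP b1]
      exact (h2.cl_iff (hN i b2) hk2).mp (hkc ▸ c4 i b3)
    have a2 : π 12 k = k := TP (i := 12) (by decide) ▸ (hk2 _ (Or.inl rfl)).2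
    have a3 : π 11 k ≠ k := fun e => c3 (by
      rw [← hkc, ← ho]
      exact (h2.cl_iff ho2 hk2).mpr (by rwa [FS.mem_cl, TP (by decide)]))
    simp only [List.forall_mem_cons] at a1
    simp [a1, a2, a3]
  rw [bs_lor, bs_pt, bs_pt] at b1
  rcases b1 with rfl | rfl
  · exact c2 hkc.symm
  · rw [← hkc] at c1
    have := (h2.cl_iff hk hk2).mp c1
    rw [FS.mem_cl, TP (by decide)] at this
    exact N24.act.apply_ne (w := [10]) (p := 31672) (q := 31672) (by decide +kernel) (by simpa using this)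

theorem up24' {Y : Type u} {F' : FS Y} (hL : L23.F.Loc F') (hC : F'.Conn) {d e c : Y} (he : e ∈ F'.nb d)
    (hec : c ∈ F'.nb e) (hdc0 : c ∉ F'.cl d) : ∃ Φ, L24.F.Emb F' Φ ∧ Function.Surjective Φ := by
  obtain ⟨φ, h1, h2, rfl, ho, rfl⟩ := charts24' hL hC he hec hdc0
  have c1 := ctx (C := ∅) (o := 11) (Pl := [9, 5, 1, 0, 2, 13, 4, 3, 7, 8, 6, 12, 11]) (Zl := []) h1 ho mem_N0 (fun _ _ => rfl)
    (fun i hi => have h := (by decide +kernel : ∀ i ∈ ([9, 5, 1, 0, 2, 13, 4, 3, 7, 8, 6, 12, 11] : List ℕ), i < 14 ∧ i ∉ ([] : List ℕ) ∧ (p i = p 11 ∨ ((p i : Fin 306936) : ℕ) < 31671)) i hi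
      ⟨h.1, h.2.1, h.2.2.imp_right mem_N1.mpr⟩) (by simp)
  have c2 := ctx (C := ∅) (o := 12) (Pl := [10, 11, 12, 5, 1, 0, 2, 13, 4, 3, 7, 8, 6]) (Zl := []) h2 rfl mem_N0 (fun _ _ => rfl)
    (fun i hi => have h := (by decide +kernel : ∀ i ∈ ([10, 11, 12, 5, 1, 0, 2, 13, 4, 3, 7, 8, 6] : List ℕ), i < 14 ∧ i ∉ ([] : List ℕ) ∧ (p i = p 12 ∨ (((p i : Fin 306936) : ℕ) < 306936 ∧ 12 < 14 ∧ p i ≠ p 12 ∧
        ptW N24.ap [12] (p i) (p i) = true))) i hi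
      ⟨h.1, h.2.1, h.2.2.imp_right (mem_N_insert (fun _ => mem_N0))⟩) (by simp)
  have hk : p 10 ∈ F.N (insert (p 12) ∅) := mem_N_insert (n0 := 306936) (fun _ => mem_N0) (by decide +kernel)
  have ho2 : p 11 ∈ F.N (insert (p 12) ∅) := mem_N_insert (n0 := 306936) (fun _ => mem_N0) (by decide +kernel)
  have hdc : φ (p 10) ∉ F'.cl d := ho ▸ fun h => not_mem_cl (by decide +kernel) ((h2.cl_iff ho2 hk).mp h)
  obtain ⟨s1, s2⟩ := FS.sub_of_charts h1 h2 hk (mem_nb (by decide +kernel)) (fun q hq hz => by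
    rw [FS.N_insert]
    exact ⟨FS.N_anti (Set.subset_insert _ _) hq, hz⟩)
  have hS : Sub1 F 31671 (p 12) (p 10) _ := ⟨s1, fun q hq => mem_N1.mp hq.1, fun q hq => s2 q (mem_N1.mpr hq)⟩
  obtain ⟨hj, hy0⟩ := f1 hL h1 h2 ho hS
  have hcom : ∀ i ∈ ([9, 1, 2, 3, 4, 5, 6, 7, 8, 12] : List ℕ), mu F' φ [] 10 * mu F' φ [] i = mu F' φ [] i * mu F' φ [] 10 :=
    fun i hi => mu_comm (by decide) fun _ => by
      rcases List.mem_cons.mp hi with rfl | hi
      · exact hj.2.2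
      · exact (letters24 hS i hi).2.2
  have hsat : Sat (mu F' φ []) R24 := by
    intro r hr
    rcases (by decide +kernel : ∀ r ∈ R24, ((∀ i ∈ r.1, i ∈ ([5, 1, 0, 2, 13, 4, 3, 7, 8, 6, 12, 11] : List ℕ)) ∧ ∀ i ∈ r.2, i ∈ ([5, 1, 0, 2, 13, 4, 3, 7, 8, 6, 12, 11] : List ℕ)) ∨
      relOk [9, 5, 1, 0, 2, 13, 4, 3, 7, 8, 6, 12, 11] [] r = true ∨ relOk [10, 11, 12, 5, 1, 0, 2, 13, 4, 3, 7, 8, 6] [] r = true ∨
      r ∈ [([10, 9], [9, 10]), ([10, 13, 9, 8, 13, 3, 7, 8, 13, 4, 3, 2, 3, 4, 13, 8, 7, 3, 13, 8, 9, 13], [13, 9, 8, 13, 3, 7, 8, 13, 4, 3, 2, 3, 4, 13, 8, 7, 3, 13, 8, 9, 13, 10]), ([9, 10, 0, 11, 10], [10, 0, 11, 10, 9]), ([10, 9, 12, 6, 9, 5, 6, 4, 5, 3, 4, 2, 3, 1, 2, 0, 1, 10, 0, 11, 10], [9, 12, 6, 9, 5, 6, 4, 5, 3, 4, 2, 3, 1, 2, 0, 1, 10, 0, 11, 10, 1])]) r hr with h | h | h | h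
    · exact rel_of_good (FS.good_two L23.lm hL hC he h1 h2) (Gl := [5, 1, 0, 2, 13, 4, 3, 7, 8, 6, 12, 11])
        (fun i hi => ⟨c1.mem_itw (by revert i; decide), c2.mem_itw (by revert i; decide)⟩) h.1 h.2 (L24.sat r hr)
    · exact c1.rel h (L24.sat r hr)
    · exact c2.rel h (L24.sat r hr)
    · simp only [List.mem_cons, List.not_mem_nil, or_false] at h
      rcases h with rfl | rfl | rfl | rfl
      · simpa using hcom 9 (by decide)
      · obtain ⟨q, -, hq1, hq2⟩ := c1.pal (w := [13, 9, 8, 13, 3, 7, 8, 13, 4, 3, 2, 3, 4, 13, 8, 7, 3, 13, 8, 9, 13]) (by decide)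
        have h3 : q = 14710 := F.inj (hq1.symm.trans T_y0.symm)
        change wp _ (10 :: [13, 9, 8, 13, 3, 7, 8, 13, 4, 3, 2, 3, 4, 13, 8, 7, 3, 13, 8, 9, 13]) = wp _ ([13, 9, 8, 13, 3, 7, 8, 13, 4, 3, 2, 3, 4, 13, 8, 7, 3, 13, 8, 9, 13] ++ [10])
        rw [wp_cons, wp_append, hq2, h3, wp_cons, wp_nil, mul_one, mu_of_not (by decide)]
        exact FS.fix_iff_commute.mp hy0.2.2
      · exact tau_comm (hcom 9 (by decide))
          (by simpa using c1.rel (r := ([9, 0], [0, 9])) (by decide) (by simpa using L24.sat.comm (i := 9) (j := 0) (by decide +kernel)))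
          (by simpa using c1.rel (r := ([9, 11], [11, 9])) (by decide) (by simpa using L24.sat.comm (i := 9) (j := 11) (by decide +kernel)))
      · exact (rel_prefix (κ := 10) (h1 := [9, 12, 6, 9, 5, 6, 4, 5, 3, 4, 2, 3, 1, 2]) (fun i hi => hcom i (by revert i; decide)) [0, 1, 10, 0, 11, 10] [0, 1, 10, 0, 11, 10, 1]).mpr
          (c2.cj (by decide +kernel) ((rel_prefix (h1 := [9, 12, 6, 9, 5, 6, 4, 5, 3, 4, 2, 3, 1, 2])
            (fun i hi => L24.sat.comm (by revert i; decide +kernel)) [0, 1, 10, 0, 11, 10] [0, 1, 10, 0, 11, 10, 1]).mp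
            (L24.sat ([10, 9, 12, 6, 9, 5, 6, 4, 5, 3, 4, 2, 3, 1, 2, 0, 1, 10, 0, 11, 10], [9, 12, 6, 9, 5, 6, 4, 5, 3, 4, 2, 3, 1, 2, 0, 1, 10, 0, 11, 10, 1]) (by decide +kernel))))
  refine L24.lev.up L24.kerP L24.sat hC hsat (fun i hi => mu_of_mem hi) (fun i _ => mu_aut i) (d := d) (by decide)
    (by rw [mu_of_not (by decide), ho]) (fun i hi => mu_fix fun hz => mem_cl_of_chart h1 ho
      (((by decide +kernel : ∀ i ∈ all23, i ∉ ([] : List ℕ) → p i = p 11 ∨ ((p i : Fin 306936) : ℕ) < 31671)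
        i hi hz).imp_right mem_N1.mpr))
    (y := 0) (by decide) (py := pn 306936 0) (by decide) L24.T_a ?_ (pk := pn 306936 10) (by decide) L24.T_k ?_
    (by rw [hL.ncard_nb]; simp)
  · rw [mu_of_not (by decide), mu_of_not (by decide), ho]
    exact fun h => (h1.mem (mem_N1.mpr (by decide))).1 (F'.inj h)
  · rw [mu_of_not (by decide), mu_of_not (by decide), ho]
    exact fun h => hdc (F'.inj h ▸ FS.self_mem_cl _)

end Cfsg.Agent.H69.FisE
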