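import Cfsg.Agent.H35.RfQ

/-! Project RF (S3318), piece X0. -/

set_option autoImplicit false

namespace Cfsg.Agent.H69.RfX0

open Cfsg Subgroup Cfsg.Agent.H35.RF

universe u

theorem mem_range {V : Type u} [AddCommGroup V] [Module (ZMod 2) V] [Finite V]
    (B : LinearMap.BilinForm (ZMod 2) V) (hB : B.Nondegenerate) (hs : ∀ x y, B x y = B y x)
    (d : V →ₗ[ZMod 2] V) (hd : ∀ x y, B (d x) y = B x (d y)) {c : V}
    (hc : ∀ u, d u = 0 → B u c = 0) : ∃ b, d b = c := by
  have hr : B.IsRefl := fun x y h => by rw [hs, h]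
  have h := LinearMap.BilinForm.orthogonal_orthogonal hB hr (LinearMap.range d)
  have : c ∈ LinearMap.range d := by
    rw [← h]
    intro u hu
    refine hc u (hB.2 _ fun y => ?_)
    rw [← hd]
    exact hu _ ⟨y, rfl⟩
  exact this

theorem four {Q : Type u} [Group Q] [Finite Q] (h : Nat.card Q ≤ 4) (h2 : ∀ q : Q, q * q = 1) :
    ∃ a b : Q, ∀ q, q = 1 ∨ q = a ∨ q = b ∨ q = a * b := by
  classical
  by_contra hn
  push Not at hn
  obtain ⟨a, a1, -⟩ := hn 1 1
  obtain ⟨b, b1, ba, -⟩ := hn a 1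
  obtain ⟨c, c1, ca, cb, cab⟩ := hn a b
  have e1 : a * b ≠ 1 := fun e => ba (mul_left_cancel (e.trans (h2 a).symm))
  have e2 : a * b ≠ a := fun e => b1 (mul_eq_left.1 e)
  have e3 : a * b ≠ b := fun e => a1 (mul_eq_right.1 e)
  have := Fintype.ofFinite Q
  have h5 : ({c, a * b, b, a, 1} : Finset Q).card = 5 := by
    rw [Finset.card_insert_of_notMem (by simp [*]), Finset.card_insert_of_notMem (by simp [*]),
      Finset.card_insert_of_notMem (by simp [*]), Finset.card_insert_of_notMem (by simp [*]),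
      Finset.card_singleton]
  have h6 := Finset.card_le_univ ({c, a * b, b, a, 1} : Finset Q)
  rw [← Nat.card_eq_fintype_card] at h6
  omega

theorem exists_not {Q : Type u} [Finite Q] (h : 4 < Nat.card Q) (a b c d : Q) :
    ∃ x, x ≠ a ∧ x ≠ b ∧ x ≠ c ∧ x ≠ d := by
  classical
  have := Fintype.ofFinite Q
  have h1 : ({a, b, c, d} : Finset Q).card ≤ 4 := Finset.card_le_four
  obtain ⟨x, -, hx⟩ := Finset.exists_mem_notMem_of_card_lt_card
    (s := ({a, b, c, d} : Finset Q)) (t := Finset.univ)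
    (by rw [Finset.card_univ, ← Nat.card_eq_fintype_card]; omega)
  exact ⟨x, by simpa [not_or] using hx⟩

section
variable {X A : Type u} [Group X] [CommGroup A]

/-- the polar form -/
def β (s : A → ZMod 2) (a b : A) : ZMod 2 := s (a * b) + s a + s b

variable {φ : X →* MulAut A} {s : A → ZMod 2} {W : Subgroup A} {H E T : Subgroup X} {ρ : X}

theorem β_comm (a b : A) : β s a b = β s b a := by
  unfold β; rw [mul_comm a b]; ring

theorem β_l (h : XFq φ s) (a a' b : A) : β s (a * a') b = β s a b + β s a' b := h.bil a a' b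

theorem β_r (h : XFq φ s) (a b b' : A) : β s a (b * b') = β s a b + β s a b' := by
  rw [β_comm, β_l h, β_comm b, β_comm b']

theorem β_one (h : XFq φ s) (b : A) : β s 1 b = 0 := by
  have := β_l h 1 1 b
  rw [mul_one] at this
  exact left_eq_add.1 this

theorem β_inv (h : XFq φ s) (x : X) (a b : A) : β s (φ x a) (φ x b) = β s a b := by
  unfold β; rw [← map_mul, h.sinv, h.sinv, h.sinv]

theorem z2 : ∀ c : ZMod 2, c = 0 ∨ c = 1 := by decide
theorem z2a : ∀ c : ZMod 2, c + c = 0 := by decide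

theorem dual [Finite A] (h : XFq φ s) {e : X} (ee : e * e = 1) {c : A}
    (hc : ∀ u, φ e u = u → β s u c = 0) : ∃ b, c = φ e b * b := by
  let : Module (ZMod 2) (Additive A) := AddCommGroup.zmodModule fun x => by
    apply Additive.toMul.injective
    rw [toMul_nsmul, pow_two, h.sqA, toMul_zero]
  let B : LinearMap.BilinForm (ZMod 2) (Additive A) := LinearMap.mk₂ (ZMod 2)
    (fun a b => β s a.toMul b.toMul) (fun a a' b => β_l h _ _ _)
    (fun k a b => by
      rcases z2 k with rfl | rfl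
      · rw [zero_smul, zero_smul]; exact β_one h _
      · rw [one_smul, one_smul])
    (fun a b b' => β_r h _ _ _)
    (fun k a b => by
      rcases z2 k with rfl | rfl
      · rw [zero_smul, zero_smul, β_comm]; exact β_one h _
      · rw [one_smul, one_smul])
  have hB : ∀ a b, B a b = β s a.toMul b.toMul := fun _ _ => rfl
  let d0 : A →* A := (φ e).toMonoidHom * MonoidHom.id A
  let d : Additive A →ₗ[ZMod 2] Additive A := (MonoidHom.toAdditive d0).toZModLinearMap 2
  have hd : ∀ a, (d a).toMul = φ e a.toMul * a.toMul := fun _ => rfl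
  have e2 : ∀ a, φ e (φ e a) = a := fun a => by
    rw [← MulAut.mul_apply, ← map_mul, ee, map_one, MulAut.one_apply]
  obtain ⟨b, hb⟩ := mem_range B
    ⟨fun a ha => h.nd a.toMul fun b => ha (.ofMul b),
      fun a ha => h.nd a.toMul fun b => (β_comm (s := s) _ _).trans (ha (.ofMul b))⟩
    (fun _ _ => β_comm _ _) d (fun a b => by
      rw [hB, hB, hd, hd, β_l h, β_r h, ← β_inv h e (φ e a.toMul), e2]) (c := .ofMul c)
    fun u hu => hc u.toMul (by
      have h1 : φ e u.toMul * u.toMul = 1 := (hd u).symm.trans (congrArg Additive.toMul hu)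
      exact mul_right_cancel (h1.trans (h.sqA _).symm))
  exact ⟨b.toMul, (congrArg Additive.toMul hb).symm⟩

theorem main [Finite X] [Finite A] (h : XF φ s W H E T ρ) {e : X} (he : e ∈ E) (e1 : e ≠ 1) :
    ∃ e' ∈ E, e' ≠ 1 ∧ e * e' ≠ 1 ∧ ∀ a, φ e a = a → ∃ b, φ e' a * a = φ e b * b := by
  have hq := h.toXFq
  have hWW : ∀ w ∈ W, ∀ w' ∈ W, β s w w' = 0 := fun w hw w' hw' => by
    unfold β; rw [h.sW _ (W.mul_mem hw hw'), h.sW _ hw, h.sW _ hw', add_zero, add_zero]
  let U : Subgroup A := (φ e).toMonoidHom.eqLocus (MonoidHom.id A)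
  have hWU : W ≤ U := fun w hw => h.EW1 e he w hw
  have hU : Nat.card U ≤ 2 ^ 8 := h.r8 e he e1
  have hc : Nat.card (U ⧸ W.subgroupOf U) ≤ 4 := by
    have h1 := (W.subgroupOf U).card_mul_index
    rw [Nat.card_congr (subgroupOfEquivOfLe hWU).toEquiv, h.cW] at h1
    rw [← index_eq_card]
    omega
  obtain ⟨q1, q2, hq12⟩ := four hc fun q => by
    obtain ⟨a, rfl⟩ := QuotientGroup.mk_surjective q
    rw [← QuotientGroup.mk_mul, show a * a = 1 from Subtype.ext (h.sqA _), QuotientGroup.mk_one]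
  obtain ⟨a1, rfl⟩ := QuotientGroup.mk_surjective q1
  obtain ⟨a2, rfl⟩ := QuotientGroup.mk_surjective q2
  have hgen : ∀ a, φ e a = a → ∃ w ∈ W, a = w ∨ a = a1 * w ∨ a = a2 * w ∨ a = a1 * a2 * w := by
    intro a ha
    have hm : ∀ b : U, (QuotientGroup.mk (⟨a, ha⟩ : U) : U ⧸ W.subgroupOf U) = QuotientGroup.mk b →
        (b : A)⁻¹ * a ∈ W := fun b hb => mem_subgroupOf.1 (QuotientGroup.eq.1 hb.symm)
    rcases hq12 (QuotientGroup.mk (⟨a, ha⟩ : U)) with h1 | h1 | h1 | h1
    · exact ⟨a, by simpa using hm 1 h1, .inl rfl⟩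
    · exact ⟨_, hm _ h1, .inr (.inl (mul_inv_cancel_left _ _).symm)⟩
    · exact ⟨_, hm _ h1, .inr (.inr (.inl (mul_inv_cancel_left _ _).symm))⟩
    · exact ⟨_, hm (a1 * a2) h1, .inr (.inr (.inr (mul_inv_cancel_left _ _).symm))⟩
  let γ : X → A → A → ZMod 2 := fun x a b => β s (φ x a * a) b
  have γl : ∀ x a a' b, γ x (a * a') b = γ x a b + γ x a' b := fun x a a' b => by
    simp only [γ]
    rw [← β_l hq, map_mul, mul_mul_mul_comm]
  have γr : ∀ x a b b', γ x a (b * b') = γ x a b + γ x a b' := fun x a b b' => β_r hq _ _ _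
  have γW : ∀ x ∈ E, ∀ w ∈ W, ∀ b, γ x w b = 0 := fun x hx w hw b => by
    simp only [γ]
    rw [h.EW1 x hx w hw, h.sqA, β_one hq]
  have γW' : ∀ x ∈ E, ∀ w ∈ W, ∀ a, γ x a w = 0 := fun x hx w hw a => hWW _ (h.EW2 x hx a) _ hw
  have γa : ∀ x ∈ E, ∀ a, γ x a a = 0 := fun x hx a => by
    simp only [γ, β]
    rw [mul_assoc, h.sqA, mul_one, h.sinv, h.sW _ (h.EW2 x hx a), add_zero, z2a]
  have γx : ∀ x ∈ E, ∀ y ∈ E, ∀ a b, γ (x * y) a b = γ x a b + γ y a b := fun x hx y hy a b => by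
    simp only [γ]
    rw [← β_l hq, map_mul, MulAut.mul_apply]
    congr 1
    have h1 := h.EW1 x hx _ (h.EW2 y hy a)
    rw [map_mul] at h1
    rw [← h1, mul_comm (φ x a * a), mul_assoc, ← mul_assoc (φ x a), h.sqA, one_mul]
  have key : ∀ x ∈ E, γ x a1 a2 = 0 → ∀ a, φ e a = a → ∃ b, φ x a * a = φ e b * b := by
    intro x hx h0 a ha
    have h21 : γ x a2 a1 = 0 := by
      have := γa x hx (a1 * a2)
      rwa [γl, γr, γr, γa x hx, γa x hx, h0, zero_add, zero_add, add_zero] at this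
    refine dual hq (h.sqE e he) fun u hu => ?_
    rw [β_comm]
    change γ x a u = 0
    obtain ⟨w, hw, h1⟩ := hgen a ha
    obtain ⟨w', hw', h2⟩ := hgen u hu
    rcases h1 with rfl | rfl | rfl | rfl <;> rcases h2 with rfl | rfl | rfl | rfl <;>
      simp only [γl, γr, γW x hx _ hw, γW' x hx _ hw', γa x hx, h0, h21, add_zero]
  have h16 : 4 < Nat.card E := by rw [h.cE]; norm_num
  obtain ⟨x, x1, xe, -⟩ := exists_not h16 1 ⟨e, he⟩ 1 1
  obtain ⟨y, y1, ye, yx, yxe⟩ := exists_not h16 1 ⟨e, he⟩ x (x * ⟨e, he⟩)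
  have hne : ∀ z : E, z ≠ ⟨e, he⟩ → e * z ≠ 1 := fun z hz h1 =>
    hz (Subtype.ext (mul_left_cancel (h1.trans (h.sqE e he).symm)))
  have xx : x * x = 1 := Subtype.ext (h.sqE x x.2)
  rcases z2 (γ x a1 a2) with hx | hx
  · exact ⟨x, x.2, fun h => x1 (Subtype.ext h), hne x xe, key x x.2 hx⟩
  rcases z2 (γ y a1 a2) with hy | hy
  · exact ⟨y, y.2, fun h => y1 (Subtype.ext h), hne y ye, key y y.2 hy⟩
  refine ⟨(x * y : E), (x * y).2, fun h => yx ?_, hne _ fun h => yxe ?_,
    key _ (x * y).2 (by rw [Subgroup.coe_mul, γx x x.2 y y.2, hx, hy, z2a])⟩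
  · exact mul_left_cancel ((Subtype.ext h : x * y = 1).trans xx.symm)
  · rw [← h, ← mul_assoc, xx, one_mul]

end

theorem x0 : X0Stmt.{u} := by
  intro X A _ _ iA _ φ s W H E T ρ h e he e1
  let : CommGroup A := { iA with
    mul_comm := fun a b => by
      have h1 := h.sqA (a * b)
      calc a * b = (a * b)⁻¹ := eq_inv_of_mul_eq_one_left h1
        _ = b * a := by
          rw [_root_.mul_inv_rev, inv_eq_of_mul_eq_one_right (h.sqA a),
            inv_eq_of_mul_eq_one_right (h.sqA b)] }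
  exact main h he e1

end Cfsg.Agent.H69.RfX0
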